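import Cfsg.Agent.H357.M9.Line

/-!
# All values of the trace (S3442 M9, helper357)
-/

set_option autoImplicit false
set_option linter.unusedSectionVars false

namespace Cfsg.Agent.H357.M9

open Cfsg Cfsg.Agent.LieClassical.HermBasic Cfsg.Agent.LieClassical.HermSiegel Cfsg.Agent.LieClassical.HermGen Matrix Module

universe v

variable {F : Type v} [Field F] [Fintype F] {q : ℕ} (hF : Fintype.card F = q ^ 2)

/-- the polynomial has a root -/
def HasRoot (q : ℕ) (α : F) : Prop := ∃ θ : F, θ ^ 3 - α * θ ^ 2 + α ^ q * θ - 1 = 0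

include hF in
theorem hasRoot_pow {α : F} (h : HasRoot q α) : HasRoot q (α ^ q) := by
  obtain ⟨θ, h1⟩ := h
  have h0 : θ ≠ 0 := by
    rintro rfl
    apply one_ne_zero (α := F)
    linear_combination -h1
  refine ⟨θ⁻¹, ?_⟩
  rw [pow_q_pow_q hF]
  have h2 : (θ⁻¹ ^ 3 - α ^ q * θ⁻¹ ^ 2 + α * θ⁻¹ - 1) * θ ^ 3 = -(θ ^ 3 - α * θ ^ 2 + α ^ q * θ - 1) := by
    field_simp
    ring
  rw [h1, neg_zero] at h2
  exact (mul_eq_zero.1 h2).resolve_right (pow_ne_zero _ h0)

theorem hasRoot_of_fix {α : F} (h : α ^ q = α) : HasRoot q α := ⟨1, by rw [h]; ring⟩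

include hF in
theorem hasRoot_of_JJ {α : F} (h : JJ q α) : HasRoot q α := by
  obtain ⟨ζ, hζ, -, hα⟩ := h
  exact ⟨ζ, by rw [JJ_roots hF hζ hα]; ring⟩

include hF in
/-- the number of traces of `ζ` times a transvection -/
theorem card_JJ (h3 : ∀ θ : F, θ * θ ^ q = 1 → θ ^ 3 = 1 → θ = 1) [DecidablePred (fun α : F => JJ q α)] :
    (Finset.univ.filter (fun α : F => JJ q α)).card = q := by
  classical
  have h1 : (Finset.univ.filter (fun ζ : F => ζ * ζ ^ q = 1 ∧ ζ ≠ 1)).card = q := by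
    have h4 : (Finset.univ.filter (fun ζ : F => ζ * ζ ^ q = 1)).card = q + 1 := by
      have h6 := card_norm_eq_one hF
      rw [Nat.card_eq_fintype_card, Fintype.card_subtype] at h6
      exact h6
    have h5 : (Finset.univ.filter (fun ζ : F => ζ * ζ ^ q = 1)) =
        insert 1 (Finset.univ.filter (fun ζ : F => ζ * ζ ^ q = 1 ∧ ζ ≠ 1)) := by
      ext t
      simp only [Finset.mem_filter, Finset.mem_univ, true_and, Finset.mem_insert]
      constructor
      · intro h6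
        by_cases h7 : t = 1
        · exact Or.inl h7
        · exact Or.inr ⟨h6, h7⟩
      · rintro (rfl | h6)
        · rw [one_pow, one_mul]
        · exact h6.1
    rw [h5, Finset.card_insert_of_notMem (by simp)] at h4
    omega
  refine Eq.trans (Eq.symm ?_) h1
  refine Finset.card_bij (fun ζ _ => 2 * ζ + (ζ ^ 2)⁻¹) ?_ ?_ ?_
  · intro ζ hζ
    rw [Finset.mem_filter] at hζ ⊢
    exact ⟨Finset.mem_univ _, ζ, hζ.2.1, hζ.2.2, rfl⟩
  · intro ζ hζ η hη h
    rw [Finset.mem_filter] at hζ hη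
    have e1 := JJ_roots hF hζ.2.1 rfl η
    have e2 := JJ_roots hF hη.2.1 rfl ζ
    have e3 := JJ_roots hF hη.2.1 rfl η
    have e4 := JJ_roots hF hζ.2.1 rfl ζ
    rw [h] at e1 e4
    rw [e3, sub_self, zero_mul, zero_mul] at e1
    rw [e4, sub_self, zero_mul, zero_mul] at e2
    have hζ0 : ζ ≠ 0 := by rintro rfl; rw [zero_mul] at hζ; exact zero_ne_one hζ.2.1
    have hη0 : η ≠ 0 := by rintro rfl; rw [zero_mul] at hη; exact zero_ne_one hη.2.1
    rcases mul_eq_zero.1 e1.symm with h5 | h5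
    · exact (sub_eq_zero.1 (mul_self_eq_zero.1 h5)).symm
    rcases mul_eq_zero.1 e2.symm with h6 | h6
    · exact (sub_eq_zero.1 (mul_self_eq_zero.1 h6))
    exfalso
    apply hζ.2.2
    apply h3 ζ hζ.2.1
    have h7 := sub_eq_zero.1 h5
    have h8 := sub_eq_zero.1 h6
    rw [h7, inv_pow, inv_inv, ← pow_mul] at h8
    have h9 : ζ * ζ ^ 3 = ζ * 1 := by rw [mul_one]; conv_rhs => rw [h8]
                                      ring
    exact mul_left_cancel₀ hζ0 h9
  · intro α hα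
    rw [Finset.mem_filter] at hα
    obtain ⟨ζ, hζ, hζ1, h⟩ := hα.2
    exact ⟨ζ, Finset.mem_filter.2 ⟨Finset.mem_univ _, hζ, hζ1⟩, h.symm⟩

variable {k : Type*} [Field k] [CharP k 2] {V : Type*} [AddCommGroup V] [Module k V] (ρ : SU 3 F q →* End k V)
variable (hX : NoFix hF ρ)

include hF hX in
/-- **The value on the elements without eigenvectors.** -/
theorem tau_noEig (hq : q.Prime) (ho : Odd q) {a : ℕ} (ha : q + 1 = 2 ^ a)
    (h3 : ∀ θ : F, θ * θ ^ q = 1 → θ ^ 3 = 1 → θ = 1) {m : k}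
    (hm : ∀ (v : Fin 3 → F) (_ : v ≠ 0) (hv : hermForm 3 F q v v = 0) (μ : Skew F q), (μ : F) ≠ 0 → tau ρ (xs hF v hv μ) = m)
    {x : SU 3 F q} (hx : NoEig x) : tau ρ x = m := by
  classical
  have hS := sum_all hF ρ hX hq ho ha h3 hm hx
  rw [← Finset.sum_filter_add_sum_filter_not Finset.univ (fun α : F => HasRoot q α)] at hS
  -- no root
  have h1 : ∑ α ∈ Finset.univ.filter (fun α : F => ¬ HasRoot q α), tt ρ α = 0 := by
    have h2 : ∀ α ∈ Finset.univ.filter (fun α : F => ¬ HasRoot q α), tt ρ α = tau ρ x := by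
      intro α hα
      rw [Finset.mem_filter] at hα
      obtain ⟨g, hg, hgα⟩ := exists_reg hF hx α
      rw [tt_eq hF ρ hX hq ho ha h3 hm hg hgα]
      have hg' : NoEig g := by
        rw [noEig_iff hF, hgα]
        intro θ h
        exact hα.2 ⟨θ, h⟩
      rw [← sum_all hF ρ hX hq ho ha h3 hm hg', ← sum_all hF ρ hX hq ho ha h3 hm hx]
    refine Finset.sum_involution (fun α _ => α ^ q) ?_ ?_ ?_ ?_
    · intro α hα
      have hα' : α ^ q ∈ Finset.univ.filter (fun α : F => ¬ HasRoot q α) := by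
        rw [Finset.mem_filter] at hα ⊢
        refine ⟨Finset.mem_univ _, fun h => hα.2 ?_⟩
        have := hasRoot_pow hF h
        rwa [pow_q_pow_q hF] at this
      rw [h2 α hα, h2 _ hα', CharTwo.add_self_eq_zero]
    · intro α hα _ h
      rw [Finset.mem_filter] at hα
      exact hα.2 (hasRoot_of_fix h)
    · intro α hα
      rw [Finset.mem_filter] at hα ⊢
      refine ⟨Finset.mem_univ _, fun h => hα.2 ?_⟩
      have := hasRoot_pow hF h
      rwa [pow_q_pow_q hF] at this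
    · intro α _
      exact pow_q_pow_q hF α
  rw [h1, add_zero] at hS
  -- roots
  have h4 : ∀ α ∈ Finset.univ.filter (fun α : F => HasRoot q α), tt ρ α = if JJ q α then m else 0 := by
    intro α hα
    rw [Finset.mem_filter] at hα
    obtain ⟨g, hg, hgα⟩ := exists_reg hF hx α
    rw [tt_eq hF ρ hX hq ho ha h3 hm hg hgα]
    obtain ⟨θ, hθ⟩ := hα.2
    rw [← hgα] at hθ
    obtain ⟨w, hw, h5⟩ := (root_iff hF g θ).2 hθ
    have h6 := (eig_case hF ρ hX ho ha h3 hm hw h5).2 hg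
    rw [hgα] at h6
    split_ifs with h7
    · exact h6.1 h7
    · exact h6.2 h7
  rw [Finset.sum_congr rfl h4, ← Finset.sum_filter, Finset.filter_filter, Finset.sum_const] at hS
  have h5 : (Finset.univ.filter (fun α : F => HasRoot q α ∧ JJ q α)) = Finset.univ.filter (fun α : F => JJ q α) := by
    ext α
    simp only [Finset.mem_filter, Finset.mem_univ, true_and]
    exact ⟨fun h => h.2, fun h => ⟨hasRoot_of_JJ hF h, h⟩⟩
  rw [h5, card_JJ hF h3] at hS
  rw [← hS]
  have h6 : ∀ s : k, (q : ℕ) • s = s := by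
    intro s
    obtain ⟨j, hj⟩ := ho
    rw [hj, add_smul, one_smul, mul_comm, mul_nsmul, two_nsmul, CharTwo.add_self_eq_zero, zero_add]
  exact h6 m

include hF hX in
/-- `m ≠ 0` -/
theorem const_ne_zero (hq : q.Prime) (ho : Odd q) {a : ℕ} (ha : q + 1 = 2 ^ a)
    (h3 : ∀ θ : F, θ * θ ^ q = 1 → θ ^ 3 = 1 → θ = 1) {m : k}
    (hm : ∀ (v : Fin 3 → F) (_ : v ≠ 0) (hv : hermForm 3 F q v v = 0) (μ : Skew F q), (μ : F) ≠ 0 → tau ρ (xs hF v hv μ) = m)
    (htr : ∃ g, LinearMap.trace k V (ρ g) ≠ 0) : m ≠ 0 := by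
  obtain ⟨g, hg⟩ := htr
  rintro rfl
  apply hg
  change tau ρ g = 0
  by_cases hne : NoEig g
  · exact tau_noEig hF ρ hX hq ho ha h3 hm hne
  · unfold NoEig at hne
    push Not at hne
    obtain ⟨v, c, h1, h2⟩ := hne
    rcases (eig_case hF ρ hX ho ha h3 hm h2 h1).1 with h | h <;> exact h

/-! ### elements of order dividing `q ^ 2 - q + 1` -/

theorem mat_pow (g : SU 3 F q) (n : ℕ) : mat (g ^ n) = mat g ^ n := by
  induction n with
  | zero => rw [pow_zero, pow_zero, mat_one]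
  | succ n ih => rw [pow_succ, pow_succ, mat_mul, ih]

theorem eq_one_of_coprime {G : Type*} [Group G] {g : G} {m n : ℕ} (h : Nat.Coprime m n) (h1 : g ^ m = 1) (h2 : g ^ n = 1) :
    g = 1 := by
  have h3 := Nat.dvd_gcd (orderOf_dvd_of_pow_eq_one h1) (orderOf_dvd_of_pow_eq_one h2)
  rw [h, Nat.dvd_one, orderOf_eq_one_iff] at h3
  exact h3

theorem eq_one_of_coprime' {θ : F} {m n : ℕ} (h : Nat.Coprime m n) (h1 : θ ^ m = 1) (h2 : θ ^ n = 1) : θ = 1 := by
  have h3 := Nat.dvd_gcd (orderOf_dvd_of_pow_eq_one h1) (orderOf_dvd_of_pow_eq_one h2)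
  rw [h, Nat.dvd_one, orderOf_eq_one_iff] at h3
  exact h3

theorem cop_one {q a : ℕ} (h2 : 2 ≤ q) (ha : q + 1 = 2 ^ a) : Nat.Coprime (q + 1) (q ^ 2 - q + 1) := by
  obtain ⟨k, rfl⟩ := Nat.exists_eq_add_of_le h2
  have h1 : (2 + k) ^ 2 - (2 + k) + 1 = 3 + (2 + k + 1) * k := by
    have : (2 + k) ^ 2 = (2 + k) + (k ^ 2 + 3 * k + 2) := by ring
    rw [this, Nat.add_sub_cancel_left]; ring
  rw [h1, Nat.coprime_comm, Nat.coprime_add_mul_left_left, ha]
  exact Nat.Coprime.pow_right _ (by norm_num)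

theorem cop_two {q : ℕ} (h2 : 2 ≤ q) : Nat.Coprime (q - 1) (q ^ 2 - q + 1) := by
  obtain ⟨k, rfl⟩ := Nat.exists_eq_add_of_le h2
  have h1 : (2 + k) ^ 2 - (2 + k) + 1 = 1 + (2 + k - 1) * (2 + k) := by
    have h3 : 2 + k - 1 = 1 + k := by omega
    have : (2 + k) ^ 2 = (2 + k) + (k ^ 2 + 3 * k + 2) := by ring
    rw [this, Nat.add_sub_cancel_left, h3]; ring
  rw [h1, Nat.coprime_comm, Nat.coprime_add_mul_left_left]
  exact Nat.coprime_one_left _

theorem cop_three {q : ℕ} (h2 : 2 ≤ q) : Nat.Coprime q (q ^ 2 - q + 1) := by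
  obtain ⟨k, rfl⟩ := Nat.exists_eq_add_of_le h2
  have h1 : (2 + k) ^ 2 - (2 + k) + 1 = 1 + (2 + k) * (1 + k) := by
    have : (2 + k) ^ 2 = (2 + k) + (k ^ 2 + 3 * k + 2) := by ring
    rw [this, Nat.add_sub_cancel_left]; ring
  rw [h1, Nat.coprime_comm, Nat.coprime_add_mul_left_left]
  exact Nat.coprime_one_left _

include hF in
theorem noEig_of_pow (hq : q.Prime) (ho : Odd q) {a : ℕ} (ha : q + 1 = 2 ^ a) {y : SU 3 F q} (hy : y ≠ 1)
    (hN : y ^ (q ^ 2 - q + 1) = 1) : NoEig y := by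
  by_contra hne
  unfold NoEig at hne
  push Not at hne
  obtain ⟨w, c, hw, hw0⟩ := hne
  apply hy
  by_cases hiso : ∃ (v : Fin 3 → F) (θ : F), v ≠ 0 ∧ hermForm 3 F q v v = 0 ∧ act y v = θ • v
  swap
  · exact eq_one_of_coprime (cop_one hq.two_le ha) (non_case hF ho hw0 hw hiso).1 hN
  obtain ⟨v, θ, hv0, hvv, hv⟩ := hiso
  have h1 : θ ^ (q ^ 2 - q + 1) = 1 := by
    have h2 := act_pow_eig hv (q ^ 2 - q + 1)
    rw [hN, act_one] at h2
    have h3 : (θ ^ (q ^ 2 - q + 1) - 1) • v = 0 := by rw [sub_smul, one_smul, ← h2, sub_self]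
    exact sub_eq_zero.1 ((smul_eq_zero.1 h3).resolve_right hv0)
  have hθ0 : θ ≠ 0 := by
    rintro rfl
    rw [zero_pow (by omega)] at h1
    exact zero_ne_one h1
  have hθ : θ = 1 := by
    have h2 : θ ^ ((q + 1) * (q - 1)) = 1 := by
      have h3 := FiniteField.pow_card_sub_one_eq_one θ hθ0
      rw [hF] at h3
      have h4 : (q + 1) * (q - 1) = q ^ 2 - 1 := by
        obtain ⟨j, rfl⟩ := Nat.exists_eq_add_of_le hq.two_le
        have : (2 + j) ^ 2 = (2 + j + 1) * (2 + j - 1) + 1 := by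
          rw [show 2 + j - 1 = 1 + j by omega]; ring
        omega
      rw [h4, h3]
    exact eq_one_of_coprime' ((cop_one hq.two_le ha).mul_left (cop_two hq.two_le)) h2 h1
  subst hθ
  obtain ⟨e, f, hfr⟩ := exists_fr3 hF hv0 hvv
  obtain ⟨a', b, c', d, t, he, hf, ht, hc, h0, -, hcp⟩ := hfr.tri hF hv
  have ht1 : t = 1 := by rw [one_pow, mul_one] at ht; exact ht
  subst ht1
  have hc1 : c' = 1 := by rw [one_mul, mul_one] at h0; exact h0
  subst hc1
  have h2 := Matrix.aeval_self_charpoly (mat y)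
  rw [hcp] at h2
  have h3 : (mat y - 1) ^ 3 = 0 := by
    rw [← h2]
    simp only [map_mul, map_sub, Polynomial.aeval_X, map_one]
    rw [pow_succ, pow_two]
  have := Fact.mk hq
  have := charP_q hF hq
  have : CharP (Matrix (Fin 3) (Fin 3) F) q := by infer_instance
  have h4 : (mat y - 1) ^ q = 0 := by
    have h5 : 3 ≤ q := by
      obtain ⟨j, hj⟩ := ho
      have := hq.two_le
      omega
    obtain ⟨j, rfl⟩ := Nat.exists_eq_add_of_le h5
    rw [pow_add, h3, zero_mul]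
  rw [sub_pow_char_of_commute _ (Commute.one_right _), one_pow, sub_eq_zero, ← mat_pow] at h4
  have h5 : y ^ q = 1 := mat_injective (by rw [h4, mat_one])
  exact eq_one_of_coprime (cop_three hq.two_le) h5 hN

end Cfsg.Agent.H357.M9
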