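import Cfsg.Agent.H357.M9.Non
import Cfsg.Agent.H357.M9.Dir
import Cfsg.Agent.H560.CV.TorN
import Cfsg.Agent.H813.CV.Dir

/-!
# Elements without eigenvectors (S3442 M9, helper357)
-/

set_option autoImplicit false
set_option linter.unusedSectionVars false

namespace Cfsg.Agent.H357.M9

open Cfsg Cfsg.Agent.LieClassical.HermBasic Cfsg.Agent.LieClassical.HermSiegel Cfsg.Agent.LieClassical.HermGen Matrix Module

universe v

variable {F : Type v} [Field F] [Fintype F] {q : ℕ} (hF : Fintype.card F = q ^ 2)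

/-- no eigenvectors -/
def NoEig (x : SU 3 F q) : Prop := ∀ (v : Fin 3 → F) (c : F), act x v = c • v → v = 0

include hF in
/-- the coset of a root group -/
theorem reg_mul_xs {x : SU 3 F q} (hx : NoEig x) (v : Fin 3 → F) (hv : hermForm 3 F q v v = 0) (μ : Skew F q) :
    Reg (x * xs hF v hv μ) := by
  intro θ u w hu hw hu0
  rw [act_mul, act_xs] at hu hw
  have h0 : hermForm 3 F q u v ≠ 0 := by
    intro h
    rw [h, mul_zero, zero_smul, add_zero] at hu
    exact hu0 (hx u θ hu)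
  refine ⟨hermForm 3 F q w v / hermForm 3 F q u v, ?_⟩
  set c := hermForm 3 F q w v / hermForm 3 F q u v with hc
  have h1 : hermForm 3 F q w v = c * hermForm 3 F q u v := by rw [hc, div_mul_cancel₀ _ h0]
  rw [← sub_eq_zero]
  apply hx _ θ
  rw [act_add, act_smul] at hu hw
  rw [sub_eq_add_neg, ← neg_smul, act_add, act_smul, smul_add, smul_smul, mul_comm θ (-c), ← smul_smul, ← hu, ← hw, h1]
  module

theorem reg_of_noEig {x : SU 3 F q} (hx : NoEig x) : Reg x := fun θ u _ hu _ hu0 => absurd (hx u θ hu) hu0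

include hF in
/-- roots of the characteristic polynomial -/
theorem root_iff (g : SU 3 F q) (θ : F) :
    (∃ w : Fin 3 → F, w ≠ 0 ∧ act g w = θ • w) ↔ θ ^ 3 - (mat g).trace * θ ^ 2 + (mat g).trace ^ q * θ - 1 = 0 := by
  have h1 : (mat g).charpoly.eval θ = θ ^ 3 - (mat g).trace * θ ^ 2 + (mat g).trace ^ q * θ - 1 := by
    rw [H560.CV.charpoly_eq hF]
    simp
  rw [← h1, Matrix.eval_charpoly, ← Matrix.exists_mulVec_eq_zero_iff]
  refine exists_congr fun w => and_congr_right fun _ => ?_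
  rw [Matrix.sub_mulVec, sub_eq_zero, act_def, eq_comm]
  simp

include hF in
theorem noEig_iff (g : SU 3 F q) :
    NoEig g ↔ ∀ θ : F, θ ^ 3 - (mat g).trace * θ ^ 2 + (mat g).trace ^ q * θ - 1 ≠ 0 := by
  constructor
  · intro h θ h1
    obtain ⟨w, hw, h2⟩ := (root_iff hF g θ).2 h1
    exact hw (h w θ h2)
  · intro h v c h1
    by_contra h2
    exact h c ((root_iff hF g c).1 ⟨v, h2, h1⟩)

variable {k : Type*} [Field k] [CharP k 2] {V : Type*} [AddCommGroup V] [Module k V] (ρ : SU 3 F q →* End k V)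
variable (hX : NoFix hF ρ)

include hF hX in
/-- the trace of `ρ g` depends only on the trace of `g` -/
theorem tau_eq_of_trace (hq : q.Prime) (ho : Odd q) {a : ℕ} (ha : q + 1 = 2 ^ a)
    (h3 : ∀ θ : F, θ * θ ^ q = 1 → θ ^ 3 = 1 → θ = 1) {m : k}
    (hm : ∀ (v : Fin 3 → F) (_ : v ≠ 0) (hv : hermForm 3 F q v v = 0) (μ : Skew F q), (μ : F) ≠ 0 → tau ρ (xs hF v hv μ) = m)
    {g g' : SU 3 F q} (hg : Reg g) (hg' : Reg g') (h : (mat g).trace = (mat g').trace) : tau ρ g = tau ρ g' := by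
  by_cases hne : NoEig g
  · have := Fact.mk hq
    have := charP_q hF hq
    exact tau_of_isConj ρ (H560.CV.isConj_of_trace hF q g g' h fun c v => hne v c)
  · have hne' : ¬ NoEig g' := by rwa [noEig_iff hF, ← h, ← noEig_iff hF]
    unfold NoEig at hne hne'
    push Not at hne hne'
    obtain ⟨v, c, h1, h2⟩ := hne
    obtain ⟨v', c', h1', h2'⟩ := hne'
    have e1 := (eig_case hF ρ hX ho ha h3 hm h2 h1).2 hg
    have e2 := (eig_case hF ρ hX ho ha h3 hm h2' h1').2 hg'
    rw [h] at e1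
    by_cases hJ : JJ q (mat g').trace
    · rw [e1.1 hJ, e2.1 hJ]
    · rw [e1.2 hJ, e2.2 hJ]

open scoped Classical in
/-- the trace function -/
noncomputable def tt (α : F) : k :=
  if h : ∃ g : SU 3 F q, Reg g ∧ (mat g).trace = α then tau ρ h.choose else 0

include hF hX in
theorem tt_eq (hq : q.Prime) (ho : Odd q) {a : ℕ} (ha : q + 1 = 2 ^ a)
    (h3 : ∀ θ : F, θ * θ ^ q = 1 → θ ^ 3 = 1 → θ = 1) {m : k}
    (hm : ∀ (v : Fin 3 → F) (_ : v ≠ 0) (hv : hermForm 3 F q v v = 0) (μ : Skew F q), (μ : F) ≠ 0 → tau ρ (xs hF v hv μ) = m)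
    {g : SU 3 F q} (hg : Reg g) {α : F} (h : (mat g).trace = α) : tt ρ α = tau ρ g := by
  have h1 : ∃ g : SU 3 F q, Reg g ∧ (mat g).trace = α := ⟨g, hg, h⟩
  rw [tt, dif_pos h1]
  exact tau_eq_of_trace hF ρ hX hq ho ha h3 hm h1.choose_spec.1 hg (h1.choose_spec.2.trans h.symm)

include hF in
/-- every trace occurs -/
theorem exists_reg {x : SU 3 F q} (hx : NoEig x) (α : F) : ∃ g : SU 3 F q, Reg g ∧ (mat g).trace = α := by
  by_cases hα : α = (mat x).trace
  · exact ⟨x, reg_of_noEig hx, hα.symm⟩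
  · obtain ⟨u, c, hu, hc, huu, ht, h⟩ := H813.CV.line hF x hx (sub_ne_zero.2 hα)
    have h1 := (ht 1).1 (one_pow q)
    refine ⟨x * xs hF u huu ⟨1 * c, h1⟩, reg_mul_xs hF hx u huu _, ?_⟩
    rw [xs, h 1, one_mul, add_sub_cancel]

include hF hX in
/-- the sum over a punctured line -/
theorem sum_line [DecidableEq F] (hq : q.Prime) (ho : Odd q) {a : ℕ} (ha : q + 1 = 2 ^ a)
    (h3 : ∀ θ : F, θ * θ ^ q = 1 → θ ^ 3 = 1 → θ = 1) {m : k}
    (hm : ∀ (v : Fin 3 → F) (_ : v ≠ 0) (hv : hermForm 3 F q v v = 0) (μ : Skew F q), (μ : F) ≠ 0 → tau ρ (xs hF v hv μ) = m)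
    {x : SU 3 F q} (hx : NoEig x) {d : F} (hd : d ≠ 0) :
    ∑ t ∈ Finset.univ.filter (fun t : F => t ^ q = t ∧ t ≠ 0), tt ρ ((mat x).trace + t * d) = tau ρ x := by
  have := Fintype.ofFinite (Skew F q)
  obtain ⟨u, c, hu, hc, huu, ht, h⟩ := H813.CV.line hF x hx hd
  have h1 := sum_tau hF ρ hX hu huu x
  have h2 : ∑ μ : Skew F q, tau ρ (x * xs hF u huu μ) =
      ∑ t ∈ Finset.univ.filter (fun t : F => t ^ q = t), tt ρ ((mat x).trace + t * d) := by
    refine Finset.sum_bij (fun (μ : Skew F q) _ => (μ : F) / c) ?_ ?_ ?_ ?_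
    · intro μ _
      rw [Finset.mem_filter, ht, div_mul_cancel₀ _ hc]
      exact ⟨Finset.mem_univ _, μ.2⟩
    · intro μ _ μ' _ h4
      exact Subtype.ext ((div_left_inj' hc).1 h4)
    · intro t ht'
      rw [Finset.mem_filter] at ht'
      exact ⟨⟨t * c, (ht t).1 ht'.2⟩, Finset.mem_univ _, by show t * c / c = t; rw [mul_div_cancel_right₀ _ hc]⟩
    · intro μ _
      symm
      apply tt_eq hF ρ hX hq ho ha h3 hm (reg_mul_xs hF hx u huu μ)
      have h4 : μ = ⟨(μ : F) / c * c, by rw [div_mul_cancel₀ _ hc]; exact μ.2⟩ := by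
        apply Subtype.ext
        show (μ : F) = (μ : F) / c * c
        rw [div_mul_cancel₀ _ hc]
      rw [← h ((μ : F) / c) (isSiegel_xs huu ⟨(μ : F) / c * c, by rw [div_mul_cancel₀ _ hc]; exact μ.2⟩)]
      conv_lhs => rw [h4]
      rfl
  rw [h2] at h1
  have h5 : (Finset.univ.filter (fun t : F => t ^ q = t)) =
      insert 0 (Finset.univ.filter (fun t : F => t ^ q = t ∧ t ≠ 0)) := by
    ext t
    simp only [Finset.mem_filter, Finset.mem_univ, true_and, Finset.mem_insert]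
    constructor
    · intro h6
      by_cases h7 : t = 0
      · exact Or.inl h7
      · exact Or.inr ⟨h6, h7⟩
    · rintro (rfl | h6)
      · exact zero_pow_q hF
      · exact h6.1
  rw [h5, Finset.sum_insert (by simp), zero_mul, add_zero,
    tt_eq hF ρ hX hq ho ha h3 hm (reg_of_noEig hx) rfl] at h1
  exact (CharTwo.add_eq_zero.1 h1).symm

include hF in
/-- the fibres of `d ↦ d ^ (q - 1)` -/
theorem fibre_iff (hq : q.Prime) {d₀ d : F} (h0 : d₀ ≠ 0) (hd : d ≠ 0) : d ^ (q - 1) = d₀ ^ (q - 1) ↔ (d / d₀) ^ q = d / d₀ := by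
  have h1 : d / d₀ ≠ 0 := div_ne_zero hd h0
  have h2 : (d / d₀) ^ q = (d / d₀) ^ (q - 1) * (d / d₀) := by
    rw [← pow_succ, Nat.sub_add_cancel hq.one_le]
  rw [h2, div_pow]
  constructor
  · intro h
    rw [h, div_self (pow_ne_zero _ h0), one_mul]
  · intro h
    have h3 : d ^ (q - 1) / d₀ ^ (q - 1) = 1 := mul_right_cancel₀ h1 (h.trans (one_mul _).symm)
    exact (div_eq_one_iff_eq (pow_ne_zero _ h0)).1 h3

include hF in
theorem sum_fibre [DecidableEq F] (hq : q.Prime) {M : Type*} [AddCommMonoid M] (φ : F → M) {d₀ : F} (hd₀ : d₀ ≠ 0) :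
    ∑ d ∈ Finset.univ.filter (fun d : F => d ≠ 0) with d ^ (q - 1) = d₀ ^ (q - 1), φ d =
      ∑ t ∈ Finset.univ.filter (fun t : F => t ^ q = t ∧ t ≠ 0), φ (t * d₀) := by
  refine Finset.sum_bij' (fun d _ => d / d₀) (fun t _ => t * d₀) ?_ ?_ ?_ ?_ ?_
  · intro d hd
    rw [Finset.mem_filter, Finset.mem_filter] at hd
    rw [Finset.mem_filter]
    exact ⟨Finset.mem_univ _, (fibre_iff hF hq hd₀ hd.1.2).1 hd.2, div_ne_zero hd.1.2 hd₀⟩
  · intro t ht
    rw [Finset.mem_filter] at ht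
    rw [Finset.mem_filter, Finset.mem_filter]
    have h1 := mul_ne_zero ht.2.2 hd₀
    refine ⟨⟨Finset.mem_univ _, h1⟩, (fibre_iff hF hq hd₀ h1).2 ?_⟩
    rw [mul_div_cancel_right₀ _ hd₀]
    exact ht.2.1
  · intro d _
    exact div_mul_cancel₀ _ hd₀
  · intro t _
    exact mul_div_cancel_right₀ _ hd₀
  · intro d _
    rw [div_mul_cancel₀ _ hd₀]

include hF in
/-- summation over the lines through `0` -/
theorem sum_fibres [DecidableEq F] (hq : q.Prime) (f : F → k) (s : k)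
    (hf : ∀ d : F, d ≠ 0 → ∑ t ∈ Finset.univ.filter (fun t : F => t ^ q = t ∧ t ≠ 0), f (t * d) = s) :
    ∑ d ∈ Finset.univ.filter (fun d : F => d ≠ 0), f d = (q + 1 : ℕ) • s := by
  set S := Finset.univ.filter (fun d : F => d ≠ 0) with hS
  set I := S.image (fun d => d ^ (q - 1)) with hI
  have hmap : ∀ d ∈ S, d ^ (q - 1) ∈ I := fun d hd => Finset.mem_image_of_mem _ hd
  have hcard : I.card = q + 1 := by
    have h1 := Finset.sum_fiberwise_of_maps_to hmap (fun _ => (1 : ℕ))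
    have h2 : ∀ z ∈ I, ∑ d ∈ S with d ^ (q - 1) = z, (1 : ℕ) = q - 1 := by
      intro z hz
      obtain ⟨d₀, hd₀, rfl⟩ := Finset.mem_image.1 hz
      rw [hS, Finset.mem_filter] at hd₀
      rw [sum_fibre hF hq (fun _ => (1 : ℕ)) hd₀.2, Finset.sum_const, smul_eq_mul, mul_one]
      have h4 : (Finset.univ.filter (fun t : F => t ^ q = t)).card = q := by
        have h6 := card_fixed hF
        rw [Nat.card_eq_fintype_card, Fintype.card_subtype] at h6
        exact h6
      have h5 : (Finset.univ.filter (fun t : F => t ^ q = t)) =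
          insert 0 (Finset.univ.filter (fun t : F => t ^ q = t ∧ t ≠ 0)) := by
        ext t
        simp only [Finset.mem_filter, Finset.mem_univ, true_and, Finset.mem_insert]
        constructor
        · intro h6
          by_cases h7 : t = 0
          · exact Or.inl h7
          · exact Or.inr ⟨h6, h7⟩
        · rintro (rfl | h6)
          · exact zero_pow_q hF
          · exact h6.1
      rw [h5, Finset.card_insert_of_notMem (by simp)] at h4
      omega
    rw [Finset.sum_congr rfl h2, Finset.sum_const, smul_eq_mul, Finset.sum_const, smul_eq_mul, mul_one, hS,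
      Finset.filter_ne', Finset.card_erase_of_mem (Finset.mem_univ _), Finset.card_univ, hF] at h1
    have h2 := hq.two_le
    have h3 : q ^ 2 - 1 = (q + 1) * (q - 1) := by
      obtain ⟨j, rfl⟩ := Nat.exists_eq_add_of_le h2
      have : (2 + j) ^ 2 = (2 + j + 1) * (2 + j - 1) + 1 := by
        rw [show 2 + j - 1 = 1 + j by omega]; ring
      omega
    rw [h3] at h1
    exact Nat.eq_of_mul_eq_mul_right (by omega) h1
  rw [← Finset.sum_fiberwise_of_maps_to hmap f, ← hcard, ← Finset.sum_const]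
  refine Finset.sum_congr rfl fun z hz => ?_
  obtain ⟨d₀, hd₀, rfl⟩ := Finset.mem_image.1 hz
  rw [hS, Finset.mem_filter] at hd₀
  rw [sum_fibre hF hq f hd₀.2, hf d₀ hd₀.2]

include hF hX in
/-- **The sum over all traces.** -/
theorem sum_all (hq : q.Prime) (ho : Odd q) {a : ℕ} (ha : q + 1 = 2 ^ a)
    (h3 : ∀ θ : F, θ * θ ^ q = 1 → θ ^ 3 = 1 → θ = 1) {m : k}
    (hm : ∀ (v : Fin 3 → F) (_ : v ≠ 0) (hv : hermForm 3 F q v v = 0) (μ : Skew F q), (μ : F) ≠ 0 → tau ρ (xs hF v hv μ) = m)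
    {x : SU 3 F q} (hx : NoEig x) : ∑ α : F, tt ρ α = tau ρ x := by
  classical
  have h1 : ∑ α : F, tt ρ α = ∑ d : F, tt ρ ((mat x).trace + d) :=
    (Equiv.sum_comp (Equiv.addLeft (mat x).trace) (fun α => tt ρ α)).symm
  have h2 := sum_fibres hF hq (fun d => tt ρ ((mat x).trace + d)) (tau ρ x)
    (fun d hd => sum_line hF ρ hX hq ho ha h3 hm hx hd)
  have h4 : (Finset.univ : Finset F) = insert 0 (Finset.univ.filter (fun d : F => d ≠ 0)) := by
    ext t
    simp only [Finset.mem_filter, Finset.mem_univ, true_and, Finset.mem_insert, true_iff]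
    exact em _
  rw [h1, h4, Finset.sum_insert (by simp), h2, add_zero, tt_eq hF ρ hX hq ho ha h3 hm (reg_of_noEig hx) rfl]
  have h5 : ∀ s : k, (q + 1 : ℕ) • s = 0 := by
    intro s
    obtain ⟨j, hj⟩ := ho
    rw [hj, show 2 * j + 1 + 1 = (j + 1) * 2 by ring, mul_nsmul, two_nsmul, CharTwo.add_self_eq_zero]
  rw [h5, add_zero]

end Cfsg.Agent.H357.M9
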