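import Cfsg.Agent.H357.M9.Cnt

/-!
# Part B of the row M9 of S3442 (helper357)
-/

set_option autoImplicit false
set_option linter.unusedSectionVars false

namespace Cfsg.Agent.H357.M9

open Cfsg Cfsg.Agent.LieClassical.HermBasic Cfsg.Agent.LieClassical.HermSiegel Cfsg.Agent.LieClassical.HermGen Matrix Module

universe v

variable {F : Type v} [Field F] [Fintype F] {q : ℕ}

theorem odd_of {a : ℕ} (hq : q.Prime) (ha : q + 1 = 2 ^ a) : Odd q := by
  rcases hq.eq_two_or_odd' with rfl | h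
  · exfalso
    rcases a with _ | a
    · omega
    · rw [pow_succ] at ha
      omega
  · exact h

theorem not_three_dvd {a : ℕ} (ha : q + 1 = 2 ^ a) : ¬ 3 ∣ q + 1 := by
  rw [ha]
  intro h
  have := Nat.prime_three.dvd_of_dvd_pow h
  omega

/-- **Part B of M9.** -/
theorem partB {a : ℕ} (hF : Fintype.card F = q ^ 2) (hq : q.Prime) (ha : q + 1 = 2 ^ a)
    (hN : ¬ (q ^ 2 - q + 1).Prime) {k : Type*} [Field k] [CharP k 2] [IsAlgClosed k] {V : Type*} [AddCommGroup V]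
    [Module k V] [FiniteDimensional k V] (ρ : SU 3 F q →* End k V)
    (htr : ∃ g, LinearMap.trace k V (ρ g) ≠ 0) (hX : NoFix hF ρ) :
    ∃ x : SU 3 F q, x ≠ 1 ∧ x ^ (q ^ 2 - q + 1) = 1 ∧ ∃ w, w ≠ 0 ∧ ρ x w = w := by
  have ho := odd_of hq ha
  have h3 : ∀ θ : F, θ * θ ^ q = 1 → θ ^ 3 = 1 → θ = 1 := by
    intro θ h1 h2
    refine eq_one_of_coprime' ?_ h2 (pow_succ_norm h1)
    rw [ha]
    exact Nat.Coprime.pow_right _ (by norm_num)
  obtain ⟨m, hm⟩ := exists_const hF ρ hX ho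
  have hm0 := const_ne_zero hF ρ hX hq ho ha h3 hm htr
  obtain ⟨x, hx⟩ := H560.CV.exists_orderN hF (not_three_dvd ha)
  obtain ⟨N, hNdef⟩ : ∃ N, N = q ^ 2 - q + 1 := ⟨_, rfl⟩
  rw [← hNdef] at hN hx ⊢
  have hxN : x ^ N = 1 := by rw [← hx, pow_orderOf_eq_one]
  have hq2 := hq.two_le
  have hq3 : 3 ≤ q := by
    obtain ⟨j, hj⟩ := ho
    omega
  have hN2 : 2 ≤ N := by
    rw [hNdef]
    obtain ⟨j, rfl⟩ := Nat.exists_eq_add_of_le hq2
    have : (2 + j) ^ 2 = (2 + j) + (j ^ 2 + 3 * j + 2) := by ring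
    omega
  have hNo : Odd N := by
    have h1 : Nat.Coprime (2 ^ a) N := by rw [← ha, hNdef]; exact cop_one hq2 ha
    have ha0 : a ≠ 0 := by
      rintro rfl
      omega
    exact (Nat.coprime_pow_left_iff (Nat.pos_of_ne_zero ha0) 2 N).1 h1 |>.symm |> Nat.Coprime.odd_of_right
  -- the value on the powers of `x`
  have hval : ∀ i, 0 < i → i < N → tau ρ (x ^ i) = m := by
    intro i hi0 hiN
    have h1 : x ^ i ≠ 1 := by
      intro h
      have := Nat.le_of_dvd hi0 (orderOf_dvd_of_pow_eq_one h)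
      omega
    refine tau_noEig hF ρ hX hq ho ha h3 hm (noEig_of_pow hF hq ho ha h1 ?_)
    rw [← hNdef, ← pow_mul, mul_comm, pow_mul, hxN, one_pow]
  -- a prime divisor
  set s := N.minFac with hs
  have hsp : s.Prime := Nat.minFac_prime (by omega)
  have hsN : s ∣ N := Nat.minFac_dvd N
  have hsne : s ≠ N := fun h => hN (h ▸ hsp)
  have hslt : s < N := lt_of_le_of_ne (Nat.le_of_dvd (by omega) hsN) hsne
  have hs2 : s ≠ 2 := by
    intro h
    rw [h] at hsN
    exact (Nat.not_even_iff_odd.2 hNo) (even_iff_two_dvd.2 hsN)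
  have hsk : NeZero (s : k) := ⟨by
    intro h
    rw [CharP.cast_eq_zero_iff k 2] at h
    exact hs2 ((Nat.prime_dvd_prime_iff_eq Nat.prime_two hsp).1 h).symm⟩
  have hs0 : NeZero s := ⟨hsp.ne_zero⟩
  obtain ⟨ω, hω⟩ := HasEnoughRootsOfUnity.exists_primitiveRoot k s
  have hω1 : ω ≠ 1 := hω.ne_one hsp.one_lt
  have hωs : ω ^ s = 1 := hω.pow_eq_one
  have hω0 : ω ≠ 0 := by
    rintro rfl
    rw [zero_pow hsp.ne_zero] at hωs
    exact zero_ne_one hωs
  have hωN : ω⁻¹ ^ N = 1 := by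
    obtain ⟨c, hc⟩ := hsN
    rw [hc, pow_mul, inv_pow, hωs, inv_one, one_pow]
  -- the projection
  set e : End k V := ∑ i ∈ Finset.range N, ω⁻¹ ^ i • ρ (x ^ i) with he
  have hxe : ρ x * e = ω • e := by
    have h1 : ρ x * e = ω • ∑ i ∈ Finset.range N, ω⁻¹ ^ (i + 1) • ρ (x ^ (i + 1)) := by
      rw [he, Finset.mul_sum, Finset.smul_sum]
      refine Finset.sum_congr rfl fun i _ => ?_
      rw [mul_smul_comm, ← map_mul, ← pow_succ', smul_smul, pow_succ ω⁻¹, mul_comm (ω⁻¹ ^ i), mul_inv_cancel_left₀ hω0]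
    rw [h1]
    congr 1
    have h2 := Finset.sum_range_succ' (fun i => ω⁻¹ ^ i • ρ (x ^ i)) N
    rw [Finset.sum_range_succ, ← he, hωN, hxN, pow_zero, pow_zero] at h2
    exact (add_right_cancel h2).symm
  have htre : LinearMap.trace k V e ≠ 0 := by
    have h1 : LinearMap.trace k V e = ∑ i ∈ Finset.range N, ω⁻¹ ^ i * tau ρ (x ^ i) := by
      rw [he, map_sum]
      refine Finset.sum_congr rfl fun i _ => ?_
      rw [map_smul, smul_eq_mul, tau]
    have h2 : ∑ i ∈ Finset.range N, ω⁻¹ ^ i * tau ρ (x ^ i) = (∑ i ∈ Finset.range N, ω⁻¹ ^ i) * m - m := by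
      obtain ⟨M, hM⟩ : ∃ M, N = M + 1 := ⟨N - 1, by omega⟩
      rw [hM, Finset.sum_range_succ', Finset.sum_range_succ' (fun i => ω⁻¹ ^ i), pow_zero, pow_zero,
        tau_one hF ρ hX ho hm, mul_zero, add_zero, add_mul, one_mul, add_sub_cancel_right, Finset.sum_mul]
      refine Finset.sum_congr rfl fun i hi => ?_
      rw [Finset.mem_range] at hi
      rw [hval (i + 1) (by omega) (by omega)]
    have h4 : ∑ i ∈ Finset.range N, ω⁻¹ ^ i = 0 := by
      have h5 := geom_sum_mul ω⁻¹ N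
      rw [hωN, sub_self] at h5
      refine (mul_eq_zero.1 h5).resolve_right fun h6 => hω1 ?_
      rw [sub_eq_zero, inv_eq_one] at h6
      exact h6
    rw [h1, h2, h4, zero_mul, zero_sub, neg_ne_zero]
    exact hm0
  have he0 : e ≠ 0 := by
    intro h
    rw [h, map_zero] at htre
    exact htre rfl
  obtain ⟨w₀, hw₀⟩ : ∃ w₀, e w₀ ≠ 0 := by
    by_contra h
    push Not at h
    exact he0 (LinearMap.ext h)
  have hxw : ρ x (e w₀) = ω • e w₀ := by
    have h1 := congrArg (fun f : End k V => f w₀) hxe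
    exact h1
  have hxw' : ∀ i : ℕ, ρ (x ^ i) (e w₀) = ω ^ i • e w₀ := by
    intro i
    induction i with
    | zero => rw [pow_zero, map_one, pow_zero, one_smul]; rfl
    | succ i ih =>
      rw [pow_succ, map_mul]
      show ρ (x ^ i) (ρ x (e w₀)) = _
      rw [hxw, map_smul, ih, smul_smul, pow_succ, mul_comm]
  refine ⟨x ^ s, ?_, ?_, e w₀, hw₀, ?_⟩
  · intro h
    have := Nat.le_of_dvd hsp.pos (orderOf_dvd_of_pow_eq_one h)
    omega
  · rw [← pow_mul, mul_comm, pow_mul, hxN, one_pow]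
  · rw [hxw', hωs, one_smul]

end Cfsg.Agent.H357.M9
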